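import Mathlib
import Cfsg.Agent.Lib.Helper55.OEll.Defs
import Cfsg.Agent.Lib.Helper10.OHyp.Invol
import Cfsg.Agent.Lib.Helper87.OHyp.Perp
import Cfsg.Agent.Lib.Helper1.OHyp.Sum

/-!
# OELL (S5993): the packages [INVOLG] and [INVOLM]

An involutory isometry `x` of a nondegenerate quadratic space of dimension `n ≥ 3` over a finite
field of odd characteristic fixes a nondegenerate `m`-space of either type for every even
`2 ≤ m < n` (and of plus type for `m = 0`).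

Route: helper10's lemmas for [INVOL] (invariant plus-type subspaces), and an invariant
anisotropic plane inside an invariant nondegenerate subspace of dimension `≥ 3`: three pairwise
orthogonal anisotropic eigenvectors `a, b, c`, the first two with the same eigenvalue,
`u = s a + t b` with `Q u = - ν Q c` for a non-square `ν`.
-/

set_option autoImplicit false
open scoped MatrixGroups
open Matrix

namespace Cfsg.Agent.Lib.Helper8.OEll

open Cfsg.Agent.Lib.Helper23.OHyp Cfsg.Agent.Lib.Helper10.OHyp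

universe u

section finite

variable {F : Type u} [Field F] [Fintype F] {ι : Type} [Fintype ι] [DecidableEq ι]
variable {Q : (ι → F) → F}

/-- the anisotropic plane spanned by `u = s a + t b` and `c` -/
theorem minus_plane_core (hSum : PkgSum.{u}) (hQ : Cfsg.Geo.IsNondegenerateQuadraticForm Q)
    (h2 : (2 : F) ≠ 0) (X : Matrix ι ι F) (W : Submodule F (ι → F)) (a b c : ι → F) (ε δ : F)
    (ha : a ∈ W) (hb : b ∈ W) (hc : c ∈ W) (hQa : Q a ≠ 0) (hQb : Q b ≠ 0) (hQc : Q c ≠ 0)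
    (hab : QuadraticMap.polar Q a b = 0) (hac : QuadraticMap.polar Q a c = 0)
    (hbc : QuadraticMap.polar Q b c = 0)
    (hXa : X *ᵥ a = ε • a) (hXb : X *ᵥ b = ε • b) (hXc : X *ᵥ c = δ • c) :
    ∃ P : Submodule F (ι → F), P ≤ W ∧ Inv X P ∧ Nd Q P ∧ ¬ Plus Q P ∧
      Module.finrank F P = 2 := by
  classical
  have hB := hQ.polar_bilinear
  have hchar : ringChar F ≠ 2 := by
    intro h
    have : CharP F 2 := h ▸ ringChar.charP F
    exact h2 (CharTwo.two_eq_zero)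
  have hodd : Fintype.card F % 2 = 1 := FiniteField.odd_card_of_char_ne_two hchar
  obtain ⟨ν, hν⟩ := FiniteField.exists_nonsquare hchar
  have hν0 : ν ≠ 0 := by
    rintro rfl
    exact hν ⟨0, by simp⟩
  have hf2 : (Polynomial.C (Q a) * Polynomial.X ^ 2 : Polynomial F).degree = 2 := by
    rw [Polynomial.degree_C_mul_X_pow 2 hQa]; rfl
  have hg2 : (Polynomial.C (Q b) * Polynomial.X ^ 2 + Polynomial.C (ν * Q c) :
      Polynomial F).degree = 2 := by
    rw [Polynomial.degree_add_C (by rw [Polynomial.degree_C_mul_X_pow 2 hQb]; exact by decide),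
      Polynomial.degree_C_mul_X_pow 2 hQb]; rfl
  obtain ⟨s, t, hst⟩ := FiniteField.exists_root_sum_quadratic hf2 hg2 hodd
  simp only [Polynomial.eval_mul, Polynomial.eval_C, Polynomial.eval_pow, Polynomial.eval_X,
    Polynomial.eval_add] at hst
  obtain ⟨u, hu⟩ : ∃ u : ι → F, u = s • a + t • b := ⟨_, rfl⟩
  have hQu : Q u = - (ν * Q c) := by
    rw [hu, q_add Q, hQ.smul, hQ.smul, hB.smul_left, hB.smul_right, hab]
    linear_combination hst
  have huc : QuadraticMap.polar Q u c = 0 := by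
    rw [hu, hB.add_left, hB.smul_left, hB.smul_left, hac, hbc]
    ring
  have hXu : X *ᵥ u = ε • u := by
    rw [hu, Matrix.mulVec_add, Matrix.mulVec_smul, Matrix.mulVec_smul, hXa, hXb, smul_add,
      smul_comm s ε a, smul_comm t ε b]
  have hQu0 : Q u ≠ 0 := by
    rw [hQu]; exact neg_ne_zero.2 (mul_ne_zero hν0 hQc)
  have huW : u ∈ W := by
    rw [hu]; exact W.add_mem (W.smul_mem _ ha) (W.smul_mem _ hb)
  obtain ⟨hnd, hfin, -⟩ := hSum F ι Q hQ h2 (Submodule.span F {u}) (Submodule.span F {c})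
    (nd_span hQ h2 u hQu0) (nd_span hQ h2 c hQc) (perp_span hQ u c huc)
  rw [finrank_span_singleton (ne_zero_of_q hQ u hQu0),
    finrank_span_singleton (ne_zero_of_q hQ c hQc)] at hfin
  refine ⟨Submodule.span F {u} ⊔ Submodule.span F {c}, ?_, ?_, hnd, ?_, hfin⟩
  · exact sup_le ((Submodule.span_singleton_le_iff_mem _ _).2 huW)
      ((Submodule.span_singleton_le_iff_mem _ _).2 hc)
  · unfold Cfsg.Agent.Lib.Helper23.OHyp.Inv
    rw [Submodule.map_sup]
    exact sup_le_sup (inv_span X u ε hXu) (inv_span X c δ hXc)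
  · rintro ⟨U, hU, hts, hdim⟩
    rw [hfin] at hdim
    have hU1 : Module.finrank F U = 1 := by omega
    have hUne : U ≠ ⊥ := by
      intro h
      rw [h, finrank_bot] at hU1
      omega
    obtain ⟨w, hw, hw0⟩ := (Submodule.ne_bot_iff U).1 hUne
    have hQw : Q w = 0 := hts w hw
    obtain ⟨y, hy, z, hz, rfl⟩ := Submodule.mem_sup.1 (hU hw)
    obtain ⟨α, rfl⟩ := Submodule.mem_span_singleton.1 hy
    obtain ⟨β, rfl⟩ := Submodule.mem_span_singleton.1 hz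
    rw [q_add Q, hQ.smul, hQ.smul, hB.smul_left, hB.smul_right, huc, hQu] at hQw
    have h3 : Q c * (β ^ 2 - ν * α ^ 2) = 0 := by linear_combination hQw
    have h4 : β ^ 2 = ν * α ^ 2 := by
      have := (mul_eq_zero.1 h3).resolve_left hQc
      linear_combination this
    by_cases hα : α = 0
    · rw [hα] at h4
      have hβ : β = 0 := by
        have : β ^ 2 = 0 := by rw [h4]; ring
        exact pow_eq_zero_iff (two_ne_zero) |>.1 this
      apply hw0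
      rw [hα, hβ, zero_smul, zero_smul, add_zero]
    · apply hν
      refine ⟨β / α, ?_⟩
      field_simp
      linear_combination -h4

/-- an invariant nondegenerate subspace of dimension `≥ 3` contains an invariant anisotropic
plane -/
theorem exists_minus_plane (hPerp : PkgPerp.{u}) (hSum : PkgSum.{u})
    (hQ : Cfsg.Geo.IsNondegenerateQuadraticForm Q) (h2 : (2 : F) ≠ 0)
    (X : Matrix ι ι F) (hisom : ∀ v, Q (X *ᵥ v) = Q v) (hdet : IsUnit X.det)
    (hXX : ∀ v, X *ᵥ (X *ᵥ v) = v) (W : Submodule F (ι → F)) (hinv : Inv X W) (hnd : Nd Q W)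
    (h3 : 3 ≤ Module.finrank F W) :
    ∃ P : Submodule F (ι → F), P ≤ W ∧ Inv X P ∧ Nd Q P ∧ ¬ Plus Q P ∧
      Module.finrank F P = 2 := by
  have hne : ∀ W' : Submodule F (ι → F), 1 ≤ Module.finrank F W' → W' ≠ ⊥ := by
    intro W' h hb
    rw [hb, finrank_bot] at h
    omega
  have hsymm : ∀ a b, QuadraticMap.polar Q a b = QuadraticMap.polar Q b a :=
    fun a b => QuadraticMap.polar_comm Q a b
  obtain ⟨e₁, he₁, hQ₁, ε₁, hε₁, hX₁⟩ := exists_aniso_eigen hQ h2 X hisom hXX W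
    ((inv_iff X W).1 hinv) hnd (hne W (by omega))
  obtain ⟨W₁, hW₁, hinv₁, hnd₁, hperp₁, -, hfin₁⟩ := hPerp F ι Q hQ X hisom hdet W
    (Submodule.span F {e₁}) ((Submodule.span_singleton_le_iff_mem _ _).2 he₁) hinv
    (inv_span X e₁ ε₁ hX₁) hnd (nd_span hQ h2 e₁ hQ₁)
  rw [finrank_span_singleton (ne_zero_of_q hQ e₁ hQ₁)] at hfin₁
  obtain ⟨e₂, he₂, hQ₂, ε₂, hε₂, hX₂⟩ := exists_aniso_eigen hQ h2 X hisom hXX W₁
    ((inv_iff X W₁).1 hinv₁) hnd₁ (hne W₁ (by omega))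
  obtain ⟨W₂, hW₂, hinv₂, hnd₂, hperp₂, -, hfin₂⟩ := hPerp F ι Q hQ X hisom hdet W₁
    (Submodule.span F {e₂}) ((Submodule.span_singleton_le_iff_mem _ _).2 he₂) hinv₁
    (inv_span X e₂ ε₂ hX₂) hnd₁ (nd_span hQ h2 e₂ hQ₂)
  rw [finrank_span_singleton (ne_zero_of_q hQ e₂ hQ₂)] at hfin₂
  obtain ⟨e₃, he₃, hQ₃, ε₃, hε₃, hX₃⟩ := exists_aniso_eigen hQ h2 X hisom hXX W₂
    ((inv_iff X W₂).1 hinv₂) hnd₂ (hne W₂ (by omega))
  have h12 : QuadraticMap.polar Q e₁ e₂ = 0 :=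
    hperp₁ e₁ (Submodule.mem_span_singleton_self e₁) e₂ he₂
  have h13 : QuadraticMap.polar Q e₁ e₃ = 0 :=
    hperp₁ e₁ (Submodule.mem_span_singleton_self e₁) e₃ (hW₂ he₃)
  have h23 : QuadraticMap.polar Q e₂ e₃ = 0 :=
    hperp₂ e₂ (Submodule.mem_span_singleton_self e₂) e₃ he₃
  have m₁ : e₁ ∈ W := he₁
  have m₂ : e₂ ∈ W := hW₁ he₂
  have m₃ : e₃ ∈ W := hW₁ (hW₂ he₃)
  by_cases c12 : ε₁ = ε₂
  · exact minus_plane_core hSum hQ h2 X W e₁ e₂ e₃ ε₁ ε₃ m₁ m₂ m₃ hQ₁ hQ₂ hQ₃ h12 h13 h23 hX₁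
      (c12 ▸ hX₂) hX₃
  · by_cases c13 : ε₁ = ε₃
    · exact minus_plane_core hSum hQ h2 X W e₁ e₃ e₂ ε₁ ε₂ m₁ m₃ m₂ hQ₁ hQ₃ hQ₂ h13 h12
        ((hsymm _ _).trans h23) hX₁ (c13 ▸ hX₃) hX₂
    · have c23 : ε₂ = ε₃ := by
        rcases hε₁ with r1 | r1 <;> rcases hε₂ with r2 | r2 <;> rcases hε₃ with r3 | r3 <;>
          simp_all
      exact minus_plane_core hSum hQ h2 X W e₂ e₃ e₁ ε₂ ε₁ m₂ m₃ m₁ hQ₂ hQ₃ hQ₁ h23
        ((hsymm _ _).trans h12) ((hsymm _ _).trans h13) hX₂ (c23 ▸ hX₃) hX₁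

end finite

/-- **[INVOLG]**, from [PERP] and [SUM]. -/
theorem pkgInvolG_of (hPerp : PkgPerp.{u}) (hSum : PkgSum.{u}) :
    Cfsg.Agent.Lib.Helper55.OEll.PkgInvolG.{u} := by
  intro F _ _ ι _ _ Q hQ h2 x hx hx2 m ε hm hmn h3 hε
  obtain ⟨j, hj⟩ := hm
  have hisom : ∀ v, Q ((x : Matrix ι ι F) *ᵥ v) = Q v := fun v => hx v v
  have hdet : IsUnit (x : Matrix ι ι F).det := (Matrix.isUnit_iff_isUnit_det _).1 x.isUnit
  have hXX : ∀ v, (x : Matrix ι ι F) *ᵥ ((x : Matrix ι ι F) *ᵥ v) = v := by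
    intro v
    have h1 : (x : Matrix ι ι F) * (x : Matrix ι ι F) = 1 := by
      rw [← Units.val_mul, ← pow_two, hx2, Units.val_one]
    rw [Matrix.mulVec_mulVec, h1, Matrix.one_mulVec]
  have hndtop : Nd Q (⊤ : Submodule F (ι → F)) := by
    intro w _ hw0
    obtain ⟨⟨y, hy⟩, ⟨z, hz⟩⟩ := hQ.nondegenerate w hw0
    exact ⟨⟨y, Submodule.mem_top, hy⟩, ⟨z, Submodule.mem_top, hz⟩⟩
  have hinvtop : Inv (x : Matrix ι ι F) (⊤ : Submodule F (ι → F)) := by
    unfold Cfsg.Agent.Lib.Helper23.OHyp.Inv; exact le_top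
  have hdimtop : Module.finrank F (⊤ : Submodule F (ι → F)) = Fintype.card ι := by
    rw [finrank_top, Module.finrank_fintype_fun_eq_card]
  by_cases hεd : ε
  · obtain ⟨W', -, hinv', hnd', hplus', hfin'⟩ := exists_plus hPerp hSum hQ h2
      (x : Matrix ι ι F) hisom hdet hXX j ⊤ hinvtop hndtop (by rw [hdimtop]; omega)
    exact ⟨W', by rw [hfin', hj]; ring, hnd', ⟨fun _ => hεd, fun _ => hplus'⟩, hinv'⟩
  · have hm0 : m ≠ 0 := fun h => hεd (hε h)
    obtain ⟨k, rfl⟩ : ∃ k, j = k + 1 := ⟨j - 1, by omega⟩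
    obtain ⟨W', -, hinv', hnd', hplus', hfin'⟩ := exists_plus hPerp hSum hQ h2
      (x : Matrix ι ι F) hisom hdet hXX k ⊤ hinvtop hndtop (by rw [hdimtop]; omega)
    obtain ⟨W₁, -, hinv₁, hnd₁, hperp₁, -, hfin₁⟩ :=
      hPerp F ι Q hQ (x : Matrix ι ι F) hisom hdet ⊤ W' le_top hinvtop hinv' hndtop hnd'
    rw [hdimtop, hfin'] at hfin₁
    obtain ⟨P, hPW, hPinv, hPnd, hPminus, hPfin⟩ :=
      exists_minus_plane hPerp hSum hQ h2 (x : Matrix ι ι F) hisom hdet hXX W₁ hinv₁ hnd₁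
        (by omega)
    have hperp : Perp Q W' P := fun a ha b hb => hperp₁ a ha b (hPW hb)
    obtain ⟨hnd'', hfin'', hplus''⟩ := hSum F ι Q hQ h2 W' P hnd' hPnd hperp
    refine ⟨W' ⊔ P, ?_, hnd'', ?_, ?_⟩
    · rw [hfin'', hfin', hPfin, hj]; ring
    · have h5 := hplus'' (by rw [hfin']; exact even_two_mul k) (by rw [hPfin]; exact even_two)
      constructor
      · intro h6
        exact absurd ((h5.1 h6).1 hplus') hPminus
      · intro h6
        exact absurd h6 hεd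
    · show Inv (x : Matrix ι ι F) (W' ⊔ P)
      unfold Cfsg.Agent.Lib.Helper23.OHyp.Inv
      rw [Submodule.map_sup]
      exact sup_le_sup hinv' hPinv

/-- **[INVOLM]** from **[INVOLG]**. -/
theorem pkgInvolM_of_involG (h : Cfsg.Agent.Lib.Helper55.OEll.PkgInvolG.{u}) :
    Cfsg.Agent.Lib.Helper55.OEll.PkgInvolM.{u} := by
  intro F _ _ ι _ _ Q hQ h2 x hx hx2 m hm hm2 hmn
  obtain ⟨W, hfin, hnd, hplus, hinv⟩ := h F ι Q hQ h2 x hx hx2 m False hm hmn (by omega)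
    (fun h0 => by omega)
  exact ⟨W, ⟨hfin, hnd, fun hp => hplus.1 hp⟩, hinv⟩

/-- **[OHYP INVOL]** from **[INVOLG]**. -/
theorem pkgInvol_of_involG (h : Cfsg.Agent.Lib.Helper55.OEll.PkgInvolG.{u}) :
    PkgInvol.{u} := by
  intro F _ _ ι _ _ Q hQ h2 x hx hx2 m hm hmn h3
  obtain ⟨W, hfin, hnd, hplus, hinv⟩ := h F ι Q hQ h2 x hx hx2 m True hm hmn h3
    (fun _ => trivial)
  exact ⟨W, ⟨hfin, hnd, hplus.2 trivial⟩, hinv⟩

/-- **[INVOLG]**, unconditional. -/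
theorem pkgInvolG : Cfsg.Agent.Lib.Helper55.OEll.PkgInvolG.{u} :=
  pkgInvolG_of Cfsg.Agent.Lib.Helper87.OHyp.pkgPerp Cfsg.Agent.Lib.Helper1.OHyp.pkgSum

/-- **[INVOLM]**, unconditional. -/
theorem pkgInvolM : Cfsg.Agent.Lib.Helper55.OEll.PkgInvolM.{u} :=
  pkgInvolM_of_involG pkgInvolG

end Cfsg.Agent.Lib.Helper8.OEll
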