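import Mathlib
import Cfsg.Prelude.Def_GeometricClasses

/-!
# A plus-type criterion for invariant subspaces of a unipotent isometry

`x = 1 + N` an isometry of a quadratic form `Q` (characteristic not 2), `τ` a linear functional,
and either (`N² = 0` and `ker N ∩ ker τ ⊥ ker N`) or (`ker N` totally isotropic and
`im N ∩ ker τ ⊆ ker N`).  Then every `N`-invariant subspace `W` of even dimension on which the
polar form is non-degenerate is of plus type: `W ∩ ker N = N W` is totally singular of half the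
dimension.
-/

set_option autoImplicit false

namespace Cfsg.Agent.Lib.Helper8.OEll

open Module

universe u

theorem finrank_le_of_ker_le {F : Type u} [Field F] {V : Type*} [AddCommGroup V] [Module F V]
    [FiniteDimensional F V] (A B : Submodule F V) (τ : V →ₗ[F] F)
    (h : B ⊓ LinearMap.ker τ ≤ A) : finrank F B ≤ finrank F A + 1 := by
  have h1 := LinearMap.finrank_range_add_finrank_ker (τ.domRestrict B)
  have h2 : finrank F (LinearMap.range (τ.domRestrict B)) ≤ 1 := by
    calc finrank F (LinearMap.range (τ.domRestrict B)) ≤ finrank F F := Submodule.finrank_le _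
      _ = 1 := Module.finrank_self F
  have h3 : finrank F (LinearMap.ker (τ.domRestrict B)) ≤ finrank F A := by
    have hmem : ∀ k : LinearMap.ker (τ.domRestrict B), ((k : B) : V) ∈ A := by
      intro k
      apply h
      refine ⟨k.1.2, ?_⟩
      have hk := k.2
      rw [LinearMap.mem_ker] at hk
      show τ ((k : B) : V) = 0
      exact hk
    apply LinearMap.finrank_le_finrank_of_injective
      (f := LinearMap.codRestrict A
        (B.subtype ∘ₗ (LinearMap.ker (τ.domRestrict B)).subtype) hmem)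
    intro a b hab
    have h4 := congrArg (fun z : A => (z : V)) hab
    exact Subtype.ext (Subtype.ext h4)
  omega

theorem plus_of_nilp {ι : Type} [Fintype ι] [DecidableEq ι] {F : Type u} [Field F]
    (h2 : (2 : F) ≠ 0) (Q : QuadraticForm F (ι → F)) (N : (ι → F) →ₗ[F] (ι → F))
    (τ : (ι → F) →ₗ[F] F) (hiso : ∀ w, Q (w + N w) = Q w)
    (hcase : (N ∘ₗ N = 0 ∧
        ∀ u v, N u = 0 → N v = 0 → τ u = 0 → QuadraticMap.polar Q u v = 0) ∨
      ((∀ u v, N u = 0 → N v = 0 → QuadraticMap.polar Q u v = 0) ∧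
        ∀ w, τ (N w) = 0 → N (N w) = 0))
    (W : Submodule F (ι → F))
    (hnd : Cfsg.Geo.IsNondegenerateOn (QuadraticMap.polar Q) W)
    (hinv : ∀ w ∈ W, N w ∈ W) (heven : Even (finrank F W)) :
    Cfsg.Geo.IsPlusTypeOn Q W := by
  classical
  have hF1 : ∀ w k, N k = 0 → QuadraticMap.polar Q (N w) k = 0 := by
    intro w k hk
    have e1 := hiso (w + k)
    have hN : N (w + k) = N w := by rw [map_add, hk, add_zero]
    rw [hN] at e1
    have e2 := hiso w
    have e3 := QuadraticMap.polar_add_left Q w (N w) k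
    have e4 : w + N w + k = w + k + N w := by abel
    simp only [QuadraticMap.polar] at e3 ⊢
    rw [e4, e1, e2] at e3
    linear_combination (-1 : F) * e3
  obtain ⟨NW, hNW⟩ : ∃ NW : W →ₗ[F] W, ∀ w : W, ((NW w : W) : ι → F) = N w :=
    ⟨N.restrict hinv, fun w => rfl⟩
  obtain ⟨BW, hBW⟩ : ∃ BW : LinearMap.BilinForm F W,
      ∀ a b : W, BW a b = QuadraticMap.polar Q (a : ι → F) (b : ι → F) :=
    ⟨LinearMap.BilinForm.restrict (QuadraticMap.polarBilin Q) W, fun a b => rfl⟩
  have hBWnd : BW.Nondegenerate := by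
    refine ⟨fun a ha => ?_, fun b hb => ?_⟩
    · by_contra hne
      have hne' : (a : ι → F) ≠ 0 := fun h => hne (Subtype.ext h)
      obtain ⟨-, x, hxW, hx⟩ := hnd a a.2 hne'
      exact hx (by rw [← hBW a ⟨x, hxW⟩]; exact ha ⟨x, hxW⟩)
    · by_contra hne
      have hne' : (b : ι → F) ≠ 0 := fun h => hne (Subtype.ext h)
      obtain ⟨⟨x, hxW, hx⟩, -⟩ := hnd b b.2 hne'
      exact hx (by rw [← hBW ⟨x, hxW⟩ b]; exact hb ⟨x, hxW⟩)
  obtain ⟨K, hK⟩ : ∃ K : Submodule F W, K = LinearMap.ker NW := ⟨_, rfl⟩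
  obtain ⟨I, hI⟩ : ∃ I : Submodule F W, I = LinearMap.range NW := ⟨_, rfl⟩
  have hRN : finrank F I + finrank F K = finrank F W := by
    rw [hI, hK]
    exact LinearMap.finrank_range_add_finrank_ker NW
  have hmemK : ∀ k : W, k ∈ K ↔ N (k : ι → F) = 0 := by
    intro k
    rw [hK, LinearMap.mem_ker, ← hNW]
    constructor
    · intro h
      rw [h]
      rfl
    · intro h
      exact Subtype.ext h
  have hmemI : ∀ v : W, v ∈ I ↔ ∃ w : W, N (w : ι → F) = (v : ι → F) := by
    intro v
    rw [hI, LinearMap.mem_range]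
    constructor
    · rintro ⟨w, hw⟩
      exact ⟨w, by rw [← hNW, hw]⟩
    · rintro ⟨w, hw⟩
      exact ⟨w, Subtype.ext (by rw [hNW, hw])⟩
  have hIorth : I ≤ BW.orthogonal K := by
    intro v hv
    obtain ⟨w, hw⟩ := (hmemI v).mp hv
    rw [LinearMap.BilinForm.mem_orthogonal_iff]
    intro k hk
    show BW k v = 0
    rw [hBW, QuadraticMap.polar_comm, ← hw]
    exact hF1 _ _ ((hmemK k).mp hk)
  have hIeq : I = BW.orthogonal K := by
    apply Submodule.eq_of_le_of_finrank_eq hIorth
    rw [LinearMap.BilinForm.finrank_orthogonal hBWnd K]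
    omega
  have horth : ∀ v : W, (∀ k ∈ K, QuadraticMap.polar Q (k : ι → F) (v : ι → F) = 0) → v ∈ I := by
    intro v hv
    rw [hIeq, LinearMap.BilinForm.mem_orthogonal_iff]
    intro k hk
    show BW k v = 0
    rw [hBW]
    exact hv k hk
  have hτmem : ∀ v : W, v ∈ LinearMap.ker (τ ∘ₗ W.subtype) ↔ τ (v : ι → F) = 0 := by
    intro v
    rw [LinearMap.mem_ker]
    rfl
  have hKI : K = I := by
    obtain ⟨r, hr⟩ := heven
    rcases hcase with ⟨hNN, hτ⟩ | ⟨hiso0, hτ⟩
    · have hle : I ≤ K := by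
        intro v hv
        obtain ⟨w, hw⟩ := (hmemI v).mp hv
        rw [hmemK, ← hw]
        exact LinearMap.congr_fun hNN (w : ι → F)
      have hker : K ⊓ LinearMap.ker (τ ∘ₗ W.subtype) ≤ I := by
        rintro k0 ⟨hk0, hτ0⟩
        apply horth
        intro k hk
        rw [QuadraticMap.polar_comm]
        exact hτ _ _ ((hmemK k0).mp hk0) ((hmemK k).mp hk) ((hτmem k0).mp hτ0)
      have h1 := finrank_le_of_ker_le I K (τ ∘ₗ W.subtype) hker
      have h3 := Submodule.finrank_mono hle
      exact (Submodule.eq_of_le_of_finrank_eq hle (by omega)).symm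
    · have hle : K ≤ I := by
        intro k hk
        apply horth
        intro k' hk'
        exact hiso0 _ _ ((hmemK k').mp hk') ((hmemK k).mp hk)
      have hker : I ⊓ LinearMap.ker (τ ∘ₗ W.subtype) ≤ K := by
        rintro v ⟨hv, hτ0⟩
        obtain ⟨w, hw⟩ := (hmemI v).mp hv
        rw [hmemK, ← hw]
        apply hτ
        rw [hw]
        exact (hτmem v).mp hτ0
      have h1 := finrank_le_of_ker_le K I (τ ∘ₗ W.subtype) hker
      have h3 := Submodule.finrank_mono hle
      exact Submodule.eq_of_le_of_finrank_eq hle (by omega)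
  refine ⟨K.map W.subtype, Submodule.map_subtype_le W K, ?_, ?_⟩
  · intro u hu
    obtain ⟨k, hk, rfl⟩ := Submodule.mem_map.mp hu
    have hkI : k ∈ I := hKI ▸ hk
    obtain ⟨w, hw⟩ := (hmemI k).mp hkI
    have h0 := hF1 (w : ι → F) (k : ι → F) ((hmemK k).mp hk)
    rw [hw, QuadraticMap.polar_self, two_smul] at h0
    have h5 : 2 * Q (k : ι → F) = 0 := by linear_combination h0
    rcases mul_eq_zero.mp h5 with h6 | h6
    · exact absurd h6 h2
    · exact h6
  · rw [Submodule.finrank_map_subtype_eq]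
    rw [hKI] at hRN ⊢
    omega

end Cfsg.Agent.Lib.Helper8.OEll
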