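import Mathlib
import Cfsg.Prelude.Def_GeometricClasses
import Cfsg.Agent.Lib.Helper8.OEll.PlusCrit
import Cfsg.Agent.Lib.Helper94.Refl
import Cfsg.Agent.Lib.Helper44.DiagIso
import Cfsg.Agent.Lib.Helper14.Forms
import Cfsg.Agent.Lib.Helper43.PG.Sq

/-!
# S5993 (elliptic subspaces of odd-dimensional orthogonal groups): the unipotent derangement

`p` odd.  `Ω_{2d+1}(q)` contains an element `x = 1 + N` of order `p` such that every `x`-invariant
subspace of even dimension on which the polar form is non-degenerate is of plus type.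
`N (t, x, y) = (c · y, S y - (2 t + c · y) c, 0)` with `S` alternating; `d` even: `c = 0`, `S`
invertible (Jordan type `J_2^d ⊕ J_1`); `d` odd: `c` the last basis vector, `S` the even one on the
other coordinates (Jordan type `J_3 ⊕ J_2^(d-1)`).
-/

set_option autoImplicit false
open scoped MatrixGroups Matrix

namespace Cfsg.Agent.Lib.Helper8.OEll

open Module

universe u

variable {F : Type u} [Field F] {d : ℕ}

/-- the index type of the odd-dimensional space -/
abbrev Idx (d : ℕ) : Type := Unit ⊕ (Fin d ⊕ Fin d)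

/-- the `y`-coordinates -/
def yPart : (Idx d → F) →ₗ[F] (Fin d → F) :=
  LinearMap.funLeft F F (fun j : Fin d => (Sum.inr (Sum.inr j) : Idx d))

theorem yPart_apply (v : Idx d → F) (j : Fin d) : yPart v j = v (Sum.inr (Sum.inr j)) := rfl

/-- the dot product with `c` as a linear functional -/
def dotL (c : Fin d → F) : (Fin d → F) →ₗ[F] F := ∑ j, c j • LinearMap.proj j

theorem dotL_apply (c y : Fin d → F) : dotL c y = ∑ j, c j * y j := by
  simp [dotL, LinearMap.sum_apply]

/-- the nilpotent map -/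
def nil (Sm : (Fin d → F) →ₗ[F] (Fin d → F)) (c : Fin d → F) :
    (Idx d → F) →ₗ[F] (Idx d → F) :=
  LinearMap.pi (Sum.elim (fun _ => dotL c ∘ₗ yPart)
    (Sum.elim (fun i => (LinearMap.proj i ∘ₗ Sm ∘ₗ yPart) -
        c i • ((2 : F) • LinearMap.proj (Sum.inl ()) + dotL c ∘ₗ yPart))
      (fun _ => 0)))

section nilfacts

variable (Sm : (Fin d → F) →ₗ[F] (Fin d → F)) (c : Fin d → F)

theorem nil_t (v : Idx d → F) : nil Sm c v (Sum.inl ()) = dotL c (yPart v) := rfl

theorem nil_x (v : Idx d → F) (i : Fin d) :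
    nil Sm c v (Sum.inr (Sum.inl i)) =
      Sm (yPart v) i - c i * (2 * v (Sum.inl ()) + dotL c (yPart v)) := by
  simp [nil]
  ring

theorem nil_y (v : Idx d → F) (i : Fin d) : nil Sm c v (Sum.inr (Sum.inr i)) = 0 := rfl

theorem yPart_nil (v : Idx d → F) : yPart (nil Sm c v) = 0 := by
  funext i
  rfl

theorem nil_nil_t (v : Idx d → F) : nil Sm c (nil Sm c v) (Sum.inl ()) = 0 := by
  rw [nil_t, yPart_nil, map_zero]

theorem nil_nil_x (v : Idx d → F) (i : Fin d) :
    nil Sm c (nil Sm c v) (Sum.inr (Sum.inl i)) = -(c i * (2 * dotL c (yPart v))) := by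
  rw [nil_x, yPart_nil, map_zero, map_zero, nil_t]
  simp

theorem nil3 (v : Idx d → F) : nil Sm c (nil Sm c (nil Sm c v)) = 0 := by
  funext idx
  rcases idx with _ | i | i
  · exact nil_nil_t Sm c _
  · rw [nil_nil_x, yPart_nil, map_zero]
    simp
  · rfl

theorem q_nil (hS : ∀ y, ∑ i, Sm y i * y i = 0) (v : Idx d → F) :
    Cfsg.quadFormOdd d F (v + nil Sm c v) = Cfsg.quadFormOdd d F v := by
  unfold Cfsg.quadFormOdd
  simp only [Pi.add_apply, nil_t, nil_x, nil_y, add_zero]
  have h1 : ∑ i, (v (Sum.inr (Sum.inl i)) +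
        (Sm (yPart v) i - c i * (2 * v (Sum.inl ()) + dotL c (yPart v)))) *
          v (Sum.inr (Sum.inr i)) =
      ∑ i, v (Sum.inr (Sum.inl i)) * v (Sum.inr (Sum.inr i)) + ∑ i, Sm (yPart v) i * yPart v i -
        (2 * v (Sum.inl ()) + dotL c (yPart v)) * ∑ i, c i * yPart v i := by
    rw [Finset.mul_sum, ← Finset.sum_add_distrib, ← Finset.sum_sub_distrib]
    apply Finset.sum_congr rfl
    intro i _
    rw [yPart_apply]
    ring
  rw [h1, hS, dotL_apply]
  ring

end nilfacts

theorem polar_y0 (u v : Idx d → F) (hu : yPart u = 0) (hv : yPart v = 0) :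
    QuadraticMap.polar (Cfsg.quadFormOdd d F) u v = 2 * u (Sum.inl ()) * v (Sum.inl ()) := by
  have hu' : ∀ i, u (Sum.inr (Sum.inr i)) = 0 := fun i => congrFun hu i
  have hv' : ∀ i, v (Sum.inr (Sum.inr i)) = 0 := fun i => congrFun hv i
  simp only [QuadraticMap.polar, Cfsg.quadFormOdd, Pi.add_apply, hu', hv', add_zero, mul_zero,
    Finset.sum_const_zero]
  ring

theorem pder_of_data [Fintype F] {p : ℕ} [Fact p.Prime] [CharP F p] (hp2 : p ≠ 2) (m : ℕ)
    (hd : 0 < d) (hm : Even m)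
    (Sm : (Fin d → F) →ₗ[F] (Fin d → F)) (c : Fin d → F)
    (hS : ∀ y, ∑ i, Sm y i * y i = 0)
    (hdata : (c = 0 ∧ ∀ y, Sm y = 0 → y = 0) ∨
      (∀ (y : Fin d → F) (t : F), (∀ i, Sm y i = c i * (2 * t + dotL c y)) → dotL c y = 0 →
        t = 0 ∧ y = 0)) :
    ∃ x : GL (Idx d) F, x ∈ Cfsg.Geo.omegaGL (Cfsg.quadFormOdd d F) ∧ orderOf x = p ∧
      ∀ W : Submodule F (Idx d → F), finrank F W = m →
        Cfsg.Geo.IsNondegenerateOn (QuadraticMap.polar (Cfsg.quadFormOdd d F)) W →
        W.map (Matrix.toLin' (x : Matrix (Idx d) (Idx d) F)) ≤ W →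
        Cfsg.Geo.IsPlusTypeOn (Cfsg.quadFormOdd d F) W := by
  classical
  have hp := (Fact.out : p.Prime)
  have h2 : (2 : F) ≠ 0 := by
    intro h
    have h3 : ((2 : ℕ) : F) = 0 := by exact_mod_cast h
    rw [CharP.cast_eq_zero_iff F p] at h3
    exact hp2 ((Nat.prime_dvd_prime_iff_eq hp Nat.prime_two).mp h3)
  have hodd : Odd (Fintype.card F) := by
    have h3 := FiniteField.odd_card_of_char_ne_two (F := F) (by rw [ringChar.eq F p]; exact hp2)
    exact Nat.odd_iff.mpr h3
  obtain ⟨N, hN⟩ : ∃ N : (Idx d → F) →ₗ[F] (Idx d → F), N = nil Sm c := ⟨_, rfl⟩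
  have hN3 : ∀ v, N (N (N v)) = 0 := by
    intro v
    rw [hN]
    exact nil3 Sm c v
  -- the kernel
  have hker : ∀ u : Idx d → F, N u = 0 →
      yPart u = 0 ∧ ((∃ v, N v = 0 ∧ v (Sum.inl ()) ≠ 0) → c = 0) := by
    intro u hu
    rw [hN] at hu
    have ht : dotL c (yPart u) = 0 := by
      have h3 := congrFun hu (Sum.inl ())
      rw [nil_t] at h3
      exact h3
    have hx : ∀ i, Sm (yPart u) i = c i * (2 * u (Sum.inl ()) + dotL c (yPart u)) := by
      intro i
      have h3 := congrFun hu (Sum.inr (Sum.inl i))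
      rw [nil_x] at h3
      exact sub_eq_zero.mp h3
    rcases hdata with ⟨hc, hinj⟩ | hB
    · refine ⟨hinj _ ?_, fun _ => hc⟩
      funext i
      rw [hx i, hc]
      simp
    · refine ⟨(hB _ _ hx ht).2, ?_⟩
      rintro ⟨v, hv, hvt⟩
      exfalso
      rw [hN] at hv
      have ht' : dotL c (yPart v) = 0 := by
        have h3 := congrFun hv (Sum.inl ())
        rw [nil_t] at h3
        exact h3
      have hx' : ∀ i, Sm (yPart v) i = c i * (2 * v (Sum.inl ()) + dotL c (yPart v)) := by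
        intro i
        have h3 := congrFun hv (Sum.inr (Sum.inl i))
        rw [nil_x] at h3
        exact sub_eq_zero.mp h3
      exact hvt (hB _ _ hx' ht').1
  -- the element
  obtain ⟨φ, hφ⟩ : ∃ φ : (Idx d → F) →ₗ[F] (Idx d → F), φ = LinearMap.id + N := ⟨_, rfl⟩
  obtain ⟨ψ, hψ⟩ : ∃ ψ : (Idx d → F) →ₗ[F] (Idx d → F), ψ = LinearMap.id - N + N ∘ₗ N :=
    ⟨_, rfl⟩
  have h1 : φ ∘ₗ ψ = LinearMap.id := by
    apply LinearMap.ext
    intro v
    rw [hφ, hψ]
    simp only [LinearMap.comp_apply, LinearMap.add_apply, LinearMap.sub_apply,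
      LinearMap.id_apply, map_add, map_sub, hN3]
    abel
  have h1' : ψ ∘ₗ φ = LinearMap.id := by
    apply LinearMap.ext
    intro v
    rw [hφ, hψ]
    simp only [LinearMap.comp_apply, LinearMap.add_apply, LinearMap.sub_apply,
      LinearMap.id_apply, map_add, map_sub, hN3]
    abel
  obtain ⟨x, hx⟩ : ∃ x : GL (Idx d) F, x = Cfsg.Agent.Lib.Helper94.glOfLin φ ψ h1 h1' :=
    ⟨_, rfl⟩
  have hxv : ∀ v, (x : Matrix (Idx d) (Idx d) F) *ᵥ v = v + N v := by
    intro v
    rw [hx, Cfsg.Agent.Lib.Helper94.glOfLin_mulVec, hφ]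
    rfl
  have hxiso : x ∈ Cfsg.isometryGroup F (Cfsg.quadFormOdd d F) := by
    rw [Cfsg.Agent.Lib.Helper44.mem_isometryGroup_iff']
    intro u
    rw [hxv, hN]
    exact q_nil Sm c hS u
  have hxp : x ^ p = 1 := by
    apply Units.ext
    rw [Units.val_pow_eq_pow_val, Units.val_one]
    have hx1 : (x : Matrix (Idx d) (Idx d) F) = 1 + LinearMap.toMatrix' N := by
      rw [hx]
      show LinearMap.toMatrix' φ = _
      rw [hφ, map_add, LinearMap.toMatrix'_id]
    have hM3 : LinearMap.toMatrix' N * LinearMap.toMatrix' N * LinearMap.toMatrix' N = 0 := by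
      rw [← LinearMap.toMatrix'_comp, ← LinearMap.toMatrix'_comp]
      have h3 : (N ∘ₗ N) ∘ₗ N = 0 := LinearMap.ext (fun v => hN3 v)
      rw [h3, map_zero]
    have hp3 : 3 ≤ p := by
      have := hp.two_le
      omega
    have hMp : LinearMap.toMatrix' N ^ p = 0 := by
      have e : p = 3 + (p - 3) := by omega
      rw [e, pow_add, pow_succ, pow_two, hM3, zero_mul]
    rw [hx1, add_pow_char_of_commute (p := p) (Commute.one_left _), one_pow, hMp, add_zero]
  have hall : x = 1 → ∀ v, N v = 0 := by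
    intro h v
    have h3 := hxv v
    rw [h, Units.val_one, Matrix.one_mulVec] at h3
    have h4 : v + N v = v + 0 := by rw [add_zero]; exact h3.symm
    exact add_left_cancel h4
  have hx1ne : x ≠ 1 := by
    intro h
    rcases hdata with ⟨hc, hinj⟩ | hB
    · have h3 := (hker (Pi.single (Sum.inr (Sum.inr ⟨0, hd⟩)) 1) (hall h _)).1
      have h4 := congrFun h3 ⟨0, hd⟩
      rw [yPart_apply, Pi.single_eq_same] at h4
      exact one_ne_zero h4
    · have h3 := hall h (Pi.single (Sum.inl ()) 1)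
      rw [hN] at h3
      have ht' : dotL c (yPart (Pi.single (Sum.inl ()) (1 : F) : Idx d → F)) = 0 := by
        have h4 := congrFun h3 (Sum.inl ())
        rw [nil_t] at h4
        exact h4
      have hx' : ∀ i, Sm (yPart (Pi.single (Sum.inl ()) (1 : F) : Idx d → F)) i =
          c i * (2 * (Pi.single (Sum.inl ()) (1 : F) : Idx d → F) (Sum.inl ()) +
            dotL c (yPart (Pi.single (Sum.inl ()) (1 : F) : Idx d → F))) := by
        intro i
        have h4 := congrFun h3 (Sum.inr (Sum.inl i))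
        rw [nil_x] at h4
        exact sub_eq_zero.mp h4
      have h5 := (hB _ _ hx' ht').1
      rw [Pi.single_eq_same] at h5
      exact one_ne_zero h5
  have hord : orderOf x = p := orderOf_eq_prime hxp hx1ne
  have hxΩ : x ∈ Cfsg.Geo.omegaGL (Cfsg.quadFormOdd d F) := by
    have hy : x ^ ((p + 1) / 2) ∈ Cfsg.isometryGroup F (Cfsg.quadFormOdd d F) :=
      Subgroup.pow_mem _ hxiso _
    have hsq := Cfsg.Agent.Lib.Helper43.PG.pkgSq hodd d ⟨x ^ ((p + 1) / 2), hy⟩
    refine ⟨_, hsq, ?_⟩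
    show x ^ ((p + 1) / 2) * x ^ ((p + 1) / 2) = x
    have hpodd : Odd p := hp.eq_two_or_odd'.resolve_left hp2
    obtain ⟨k, hk⟩ := hpodd
    have e : (p + 1) / 2 + (p + 1) / 2 = p + 1 := by omega
    rw [← pow_add, e, pow_succ, hxp, one_mul]
  refine ⟨x, hxΩ, hord, ?_⟩
  intro W hWm hnd hinvW
  have hinv : ∀ w ∈ W, N w ∈ W := by
    intro w hw
    have h3 : Matrix.toLin' (x : Matrix (Idx d) (Idx d) F) w ∈ W :=
      hinvW (Submodule.mem_map_of_mem hw)
    rw [Matrix.toLin'_apply, hxv] at h3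
    have h4 := W.sub_mem h3 hw
    rw [add_sub_cancel_left] at h4
    exact h4
  have hiso : ∀ w, (Cfsg.Agent.Lib.Helper14.oddQF d F) (w + N w) =
      (Cfsg.Agent.Lib.Helper14.oddQF d F) w := by
    intro w
    show ⇑(Cfsg.Agent.Lib.Helper14.oddQF d F) (w + N w) = ⇑(Cfsg.Agent.Lib.Helper14.oddQF d F) w
    rw [Cfsg.Agent.Lib.Helper14.oddQF_coe, hN]
    exact q_nil Sm c hS w
  have hcase : (N ∘ₗ N = 0 ∧ ∀ u v, N u = 0 → N v = 0 →
        (LinearMap.proj (Sum.inl ()) : (Idx d → F) →ₗ[F] F) u = 0 →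
        QuadraticMap.polar (⇑(Cfsg.Agent.Lib.Helper14.oddQF d F)) u v = 0) ∨
      ((∀ u v, N u = 0 → N v = 0 →
        QuadraticMap.polar (⇑(Cfsg.Agent.Lib.Helper14.oddQF d F)) u v = 0) ∧
        ∀ w, (LinearMap.proj (Sum.inl ()) : (Idx d → F) →ₗ[F] F) (N w) = 0 → N (N w) = 0) := by
    rw [Cfsg.Agent.Lib.Helper14.oddQF_coe]
    by_cases hc : c = 0
    · left
      constructor
      · apply LinearMap.ext
        intro v
        rw [LinearMap.comp_apply, hN]
        funext idx
        rcases idx with _ | i | i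
        · exact nil_nil_t Sm c v
        · rw [nil_nil_x, hc]
          simp
        · rfl
      · intro u v hu hv hτ
        rw [polar_y0 u v (hker u hu).1 (hker v hv).1]
        have hτ' : u (Sum.inl ()) = 0 := hτ
        rw [hτ']
        ring
    · right
      constructor
      · intro u v hu hv
        rw [polar_y0 u v (hker u hu).1 (hker v hv).1]
        have hut : u (Sum.inl ()) = 0 := by
          by_contra hne
          exact hc ((hker u hu).2 ⟨u, hu, hne⟩)
        rw [hut]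
        ring
      · intro w hτ
        have hτ' : N w (Sum.inl ()) = 0 := hτ
        rw [hN] at hτ' ⊢
        rw [nil_t] at hτ'
        funext idx
        rcases idx with _ | i | i
        · exact nil_nil_t Sm c w
        · rw [nil_nil_x, hτ']
          simp
        · rfl
  have hnd' : Cfsg.Geo.IsNondegenerateOn
      (QuadraticMap.polar (⇑(Cfsg.Agent.Lib.Helper14.oddQF d F))) W := by
    rw [Cfsg.Agent.Lib.Helper14.oddQF_coe]
    exact hnd
  have hfin := plus_of_nilp h2 (Cfsg.Agent.Lib.Helper14.oddQF d F) N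
    (LinearMap.proj (Sum.inl ())) hiso hcase W hnd' hinv (hWm ▸ hm)
  rw [Cfsg.Agent.Lib.Helper14.oddQF_coe] at hfin
  exact hfin

/-! ## The data -/

/-- the standard alternating map on `F^(b+b)` -/
def smEven (b : ℕ) : (Fin (b + b) → F) →ₗ[F] (Fin (b + b) → F) :=
  LinearMap.pi (fun i => Fin.addCases (motive := fun _ => (Fin (b + b) → F) →ₗ[F] F)
    (fun a => LinearMap.proj (Fin.natAdd b a)) (fun a => -LinearMap.proj (Fin.castAdd b a)) i)

theorem smEven_left {b : ℕ} (y : Fin (b + b) → F) (a : Fin b) :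
    smEven b y (Fin.castAdd b a) = y (Fin.natAdd b a) := by
  simp only [smEven, LinearMap.pi_apply, Fin.addCases_left, LinearMap.proj_apply]

theorem smEven_right {b : ℕ} (y : Fin (b + b) → F) (a : Fin b) :
    smEven b y (Fin.natAdd b a) = -y (Fin.castAdd b a) := by
  simp only [smEven, LinearMap.pi_apply, Fin.addCases_right, LinearMap.neg_apply,
    LinearMap.proj_apply]

theorem smEven_alt {b : ℕ} (y : Fin (b + b) → F) : ∑ i, smEven b y i * y i = 0 := by
  rw [Fin.sum_univ_add]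
  simp only [smEven_left, smEven_right]
  rw [← Finset.sum_add_distrib]
  apply Finset.sum_eq_zero
  intro a _
  ring

theorem smEven_inj {b : ℕ} (y : Fin (b + b) → F) (h : smEven b y = 0) : y = 0 := by
  funext j
  refine Fin.addCases (fun a => ?_) (fun a => ?_) j
  · have h3 := congrFun h (Fin.natAdd b a)
    rw [smEven_right] at h3
    simpa using h3
  · have h3 := congrFun h (Fin.castAdd b a)
    rw [smEven_left] at h3
    simpa using h3

/-- the alternating map on `F^(b+b+1)`: the even one on the first `b+b` coordinates -/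
def smOdd (b : ℕ) : (Fin (b + b + 1) → F) →ₗ[F] (Fin (b + b + 1) → F) :=
  LinearMap.pi (fun i => Fin.lastCases (motive := fun _ => (Fin (b + b + 1) → F) →ₗ[F] F) 0
    (fun i' => LinearMap.proj i' ∘ₗ smEven b ∘ₗ LinearMap.funLeft F F Fin.castSucc) i)

theorem smOdd_last {b : ℕ} (y : Fin (b + b + 1) → F) : smOdd b y (Fin.last (b + b)) = 0 := by
  simp [smOdd]

theorem smOdd_castSucc {b : ℕ} (y : Fin (b + b + 1) → F) (i : Fin (b + b)) :
    smOdd b y (Fin.castSucc i) = smEven b (fun j => y (Fin.castSucc j)) i := by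
  simp [smOdd]
  rfl

/-- the last basis vector -/
def cOdd (b : ℕ) : Fin (b + b + 1) → F := Pi.single (Fin.last (b + b)) 1

theorem cOdd_last {b : ℕ} : (cOdd b : Fin (b + b + 1) → F) (Fin.last (b + b)) = 1 := by
  simp [cOdd]

theorem cOdd_castSucc {b : ℕ} (i : Fin (b + b)) :
    (cOdd b : Fin (b + b + 1) → F) (Fin.castSucc i) = 0 := by
  simp [cOdd, Fin.castSucc_ne_last]

theorem dotL_cOdd {b : ℕ} (y : Fin (b + b + 1) → F) :
    dotL (cOdd b) y = y (Fin.last (b + b)) := by
  rw [dotL_apply, Fin.sum_univ_castSucc]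
  simp only [cOdd_castSucc, cOdd_last, zero_mul, Finset.sum_const_zero, zero_add, one_mul]

theorem smOdd_alt {b : ℕ} (y : Fin (b + b + 1) → F) : ∑ i, smOdd b y i * y i = 0 := by
  rw [Fin.sum_univ_castSucc, smOdd_last, zero_mul, add_zero]
  simp only [smOdd_castSucc]
  exact smEven_alt (fun j => y (Fin.castSucc j))

theorem smOdd_data {b : ℕ} (h2 : (2 : F) ≠ 0) (y : Fin (b + b + 1) → F) (t : F)
    (h : ∀ i, smOdd b y i = cOdd b i * (2 * t + dotL (cOdd b) y))
    (h0 : dotL (cOdd b) y = 0) : t = 0 ∧ y = 0 := by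
  have ht : t = 0 := by
    have h3 := h (Fin.last _)
    rw [smOdd_last, h0, add_zero, cOdd_last, one_mul] at h3
    rcases mul_eq_zero.mp h3.symm with h4 | h4
    · exact absurd h4 h2
    · exact h4
  refine ⟨ht, ?_⟩
  rw [dotL_cOdd] at h0
  have hy : (fun j => y (Fin.castSucc j)) = 0 := by
    apply smEven_inj
    funext i
    have h3 := h (Fin.castSucc i)
    rw [smOdd_castSucc, cOdd_castSucc, zero_mul] at h3
    exact h3
  funext j
  refine Fin.lastCases ?_ (fun i => ?_) j
  · exact h0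
  · exact congrFun hy i

/-- **[PDER]** the unipotent derangement of `Ω_{2d+1}(q)` on elliptic subspaces. -/
theorem pder : ∀ {F : Type u} [Field F] [Fintype F] {p : ℕ} [Fact p.Prime] [CharP F p], p ≠ 2 →
    ∀ d m : ℕ, 1 ≤ d → Even m →
    ∃ x : GL (Unit ⊕ (Fin d ⊕ Fin d)) F, x ∈ Cfsg.Geo.omegaGL (Cfsg.quadFormOdd d F) ∧
      orderOf x = p ∧
      ∀ W : Submodule F (Unit ⊕ (Fin d ⊕ Fin d) → F), Module.finrank F ↥W = m →
        Cfsg.Geo.IsNondegenerateOn (QuadraticMap.polar (Cfsg.quadFormOdd d F)) W →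
        W.map (Matrix.toLin'
          (x : Matrix (Unit ⊕ (Fin d ⊕ Fin d)) (Unit ⊕ (Fin d ⊕ Fin d)) F)) ≤ W →
        Cfsg.Geo.IsPlusTypeOn (Cfsg.quadFormOdd d F) W := by
  intro F _ _ p _ _ hp2 d m hd hm
  have hp := (Fact.out : p.Prime)
  have h2 : (2 : F) ≠ 0 := by
    intro h
    have h3 : ((2 : ℕ) : F) = 0 := by exact_mod_cast h
    rw [CharP.cast_eq_zero_iff F p] at h3
    exact hp2 ((Nat.prime_dvd_prime_iff_eq hp Nat.prime_two).mp h3)
  obtain ⟨b, hb⟩ : ∃ b, d = b + b ∨ d = b + b + 1 := ⟨d / 2, by omega⟩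
  rcases hb with rfl | rfl
  · exact pder_of_data hp2 m (by omega) hm (smEven b) 0 smEven_alt (Or.inl ⟨rfl, smEven_inj⟩)
  · exact pder_of_data hp2 m (by omega) hm (smOdd b) (cOdd b) smOdd_alt
      (Or.inr (smOdd_data h2))

end Cfsg.Agent.Lib.Helper8.OEll
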