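import Mathlib
import Cfsg.Agent.Lib.Helper8.OEll.PDer
import Cfsg.Agent.Lib.Helper55.OEll.Defs

/-!
# S5993 (OELL): the package [PDER] in helper55's interface form
-/

set_option autoImplicit false
open scoped MatrixGroups Matrix

namespace Cfsg.Agent.Lib.Helper8.OEll

universe u

/-- [PDER] in the form of `Cfsg.Agent.Lib.Helper55.OEll.PkgPDer` (the element even lies in
`Ω`, see `pder`). -/
theorem pkgPDer : Cfsg.Agent.Lib.Helper55.OEll.PkgPDer.{u} := by
  intro F _ _ p _ _ hp2 d m hd hm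
  obtain ⟨x, hx, hord, hW⟩ := pder (F := F) (p := p) hp2 d m hd hm
  exact ⟨x, Cfsg.Agent.Lib.Helper94.omegaGL_le _ hx, hord, hW⟩

end Cfsg.Agent.Lib.Helper8.OEll
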